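import Cfsg.Agent.H374.Six5.Gen
import Cfsg.Agent.H371.P4.G2

/-!
# Elimination of `G₂(v)` in block 6, `q = 5 ^ m` (helper374, task 2624)
-/

set_option autoImplicit false
set_option linter.unusedSectionVars false

universe u

namespace Cfsg.Agent.H374.Six5

open CoxeterSystem Subgroup Cfsg Cfsg.Lie Cfsg.Lie.ChevalleyDatum
open Cfsg.Agent.ChevalleyStructure.CoxeterGeomTypes
open Cfsg.Agent.Nodes.RGDChev
open Cfsg.Agent.BpExc.RowsUntw Cfsg.Agent.BpExc.FamInst
open Cfsg.Agent.H378 Cfsg.Agent.H378.SmallTor Cfsg.Agent.H378.AdjTab Cfsg.Agent.H378.CycTab Cfsg.Agent.H378.ExcAdj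
open Cfsg.Agent.H376.Six Cfsg.Agent.H60.Six5 Cfsg.Agent.H371.CycEval
open Cfsg.Agent.H371.Core (Tor tor_G2_3 tor_G2_6 exists_orderOf_tor)
open Cfsg.Agent.H129.WData Cfsg.Agent.H493.PGTorus

namespace G2

/-- the longest element -/
def W0 : List (Fin 2 × Mat 2) := [
    (0, ![![-1, 0], ![0, -1]]),
    (1, ![![1, 0], ![-3, -1]]),
    (0, ![![1, 1], ![-3, -2]]),
    (1, ![![2, 1], ![-3, -2]]),
    (0, ![![2, 1], ![-3, -1]]),
    (1, ![![1, 1], ![0, -1]])]

theorem chainW0 : ChainOK AdjG2.Am W0 := by decide +kernel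

theorem hW0 : ∀ j m, hd W0 j m = if j = m then -1 else 0 := by decide +kernel

/-- elements of order 25 -/
theorem no25 (F : Type u) [Field F] [Finite F] (h5 : ¬ 5 ∣ Nat.card F) (x : ↥(chevG2.group F)) (hx : orderOf x = 25) :
    25 ∣ Nat.card F - 1 ∨ 25 ∣ Nat.card F + 1 := by
  have : Fintype F := Fintype.ofFinite F
  let cs : CoxeterSystem CoxeterMatrix.G₂ CoxeterMatrix.G₂.Group := CoxeterMatrix.G₂.toCoxeterSystem
  have := finite_W g2T cs
  have hF : 1 < Nat.card F := Finite.one_lt_card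
  have hcard : Nat.card ↥(chevG2.group F) = _ := Cfsg.Agent.S1059.result (F := F) rfl
  rw [← Nat.card_eq_fintype_card] at hcard
  obtain ⟨w, hw⟩ : ∃ w, Nat.card F = w + 2 := ⟨Nat.card F - 2, by omega⟩
  have h25 : 25 ∣ Nat.card ↥(chevG2.group F) := hx ▸ orderOf_dvd_natCard x
  have p5 : Nat.Prime 5 := by norm_num
  have e2 : (w + 2) ^ 2 - 1 = (w + 1) * (w + 3) := by
    have : (w + 2) ^ 2 = (w + 1) * (w + 3) + 1 := by ring
    omega
  have e6 : (w + 2) ^ 6 - 1 = (w + 1) * (w + 3) * ((w + 2) ^ 2 + (w + 2) + 1) * ((w + 2) * (w + 1) + 1) := by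
    have : (w + 2) ^ 6 = (w + 1) * (w + 3) * ((w + 2) ^ 2 + (w + 2) + 1) * ((w + 2) * (w + 1) + 1) + 1 := by ring
    omega
  rw [hw] at h5 hcard
  rw [e2, e6] at hcard
  have key : ∀ k, k < 5 → w % 5 = k → (w + 2) ^ 2 % 5 = (k + 2) ^ 2 % 5 ∧ ((w + 2) * (w + 1) + 1) % 5 =
      ((k + 2) * (k + 1) + 1) % 5 := by
    intro k hk hwk
    constructor
    · simp [Nat.pow_mod, Nat.add_mod, hwk]
    · simp [Nat.add_mod, Nat.mul_mod, hwk]
  have hw4 : w % 5 = 4 ∨ w % 5 = 2 ∨ w % 5 = 0 ∨ w % 5 = 1 := by omega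
  rcases hw4 with h | h | h | h
  · -- `v = 1` modulo 5
    left
    obtain ⟨k1, k2⟩ := key 4 (by norm_num) h
    have hm : ¬ 5 ∣ (w + 2) ^ 6 * (w + 3) * ((w + 3) * ((w + 2) ^ 2 + (w + 2) + 1) * ((w + 2) * (w + 1) + 1)) := by
      intro h1
      rcases p5.dvd_mul.1 h1 with h1 | h1
      · rcases p5.dvd_mul.1 h1 with h1 | h1
        · exact h5 (p5.dvd_of_dvd_pow h1)
        · omega
      · rcases p5.dvd_mul.1 h1 with h1 | h1
        · rcases p5.dvd_mul.1 h1 with h1 | h1
          · omega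
          · omega
        · omega
    have h2 := dvd_of_scalar g2T cs inv_G2 AdjG2.hA (L := []) trivial (e := 1) (fun j m => rfl) (F := F) (N := w + 1)
      (m := (w + 2) ^ 6 * (w + 3) * ((w + 3) * ((w + 2) ^ 2 + (w + 2) + 1) * ((w + 2) * (w + 1) + 1)))
      (by rw [hw]; push_cast; ring) (by omega) (by rw [hcard]; ring) hm hx
    rw [hw]
    exact h2
  · right
    obtain ⟨k1, k2⟩ := key 2 (by norm_num) h
    have hm : ¬ 5 ∣ (w + 2) ^ 6 * (w + 1) * ((w + 1) * ((w + 2) ^ 2 + (w + 2) + 1) * ((w + 2) * (w + 1) + 1)) := by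
      intro h1
      rcases p5.dvd_mul.1 h1 with h1 | h1
      · rcases p5.dvd_mul.1 h1 with h1 | h1
        · exact h5 (p5.dvd_of_dvd_pow h1)
        · omega
      · rcases p5.dvd_mul.1 h1 with h1 | h1
        · rcases p5.dvd_mul.1 h1 with h1 | h1
          · omega
          · omega
        · omega
    have h2 := dvd_of_scalar g2T cs inv_G2 AdjG2.hA (L := W0) chainW0 (e := -1) hW0 (F := F) (N := w + 3)
      (m := (w + 2) ^ 6 * (w + 1) * ((w + 1) * ((w + 2) ^ 2 + (w + 2) + 1) * ((w + 2) * (w + 1) + 1)))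
      (by rw [hw]; push_cast; ring) (by omega) (by rw [hcard]; ring) hm hx
    rw [hw]
    exact h2
  all_goals
    exfalso
    have h1 : 5 ∣ Nat.card ↥(chevG2.group F) := (by norm_num : 5 ∣ 25).trans h25
    rw [hcard] at h1
  · obtain ⟨k1, k2⟩ := key 0 (by norm_num) h
    rcases p5.dvd_mul.1 h1 with h1 | h1
    · rcases p5.dvd_mul.1 h1 with h1 | h1
      · exact h5 (p5.dvd_of_dvd_pow h1)
      · rcases p5.dvd_mul.1 h1 with h1 | h1 <;> omega
    · rcases p5.dvd_mul.1 h1 with h1 | h1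
      · rcases p5.dvd_mul.1 h1 with h1 | h1
        · rcases p5.dvd_mul.1 h1 with h1 | h1 <;> omega
        · omega
      · omega
  · obtain ⟨k1, k2⟩ := key 1 (by norm_num) h
    rcases p5.dvd_mul.1 h1 with h1 | h1
    · rcases p5.dvd_mul.1 h1 with h1 | h1
      · exact h5 (p5.dvd_of_dvd_pow h1)
      · rcases p5.dvd_mul.1 h1 with h1 | h1 <;> omega
    · rcases p5.dvd_mul.1 h1 with h1 | h1
      · rcases p5.dvd_mul.1 h1 with h1 | h1
        · rcases p5.dvd_mul.1 h1 with h1 | h1 <;> omega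
        · omega
      · omega

/-- the case `ap q`, `am q` -/
theorem main {q : ℕ} {F : Type u} [Field F] [Finite F] (h5 : ¬ 5 ∣ Nat.card F) (hF : 3 ≤ Nat.card F)
    (h : E5 q ↥(chevG2.group F)) (hap : ∃ x : ↥(chevG2.group F), orderOf x = ap q)
    (ham : ∃ x : ↥(chevG2.group F), orderOf x = am q) : False := by
  have : Fintype F := Fintype.ofFinite F
  have hP := pow5 h.pow
  have hq5 := hP.le
  obtain ⟨u, hu, huF, n, hn, hv⟩ := exists_charP F
  have hup := hu.out
  have hcard : Nat.card ↥(chevG2.group F) = _ := Cfsg.Agent.S1059.result (F := F) rfl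
  rw [← Nat.card_eq_fintype_card] at hcard
  obtain ⟨v, hvv⟩ : ∃ v, v = Nat.card F := ⟨_, rfl⟩
  have T3 := tor_G2_3 F
  have T6 := tor_G2_6 F
  rw [← hvv] at h5 hF hcard hv T3 T6
  obtain ⟨P3, hP3⟩ : ∃ P3, P3 = (ev 3 (v : ℕ)).natAbs := ⟨_, rfl⟩
  obtain ⟨P6, hP6⟩ : ∃ P6, P6 = (ev 6 (v : ℕ)).natAbs := ⟨_, rfl⟩
  rw [← hP3] at T3
  rw [← hP6] at T6
  have z3 : (P3 : ℤ) = (v : ℤ) ^ 2 + v + 1 := by
    rw [hP3, ← ev3, Int.natCast_natAbs, abs_of_pos (ev_pos (by norm_num) _)]
  have z6 : (P6 : ℤ) = (v : ℤ) ^ 2 - v + 1 := by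
    rw [hP6, ← ev6, Int.natCast_natAbs, abs_of_pos (ev_pos (by norm_num) _)]
  have n3 : P3 = v ^ 2 + v + 1 := by exact_mod_cast z3
  have n6 : P6 + v = v ^ 2 + 1 := by
    have : (P6 : ℤ) + v = (v : ℤ) ^ 2 + 1 := by rw [z6]; ring
    exact_mod_cast this
  -- the primes of `am q`
  obtain ⟨r, hr, hrm⟩ := exists_am hP
  have hrS : r ∣ Nat.card ↥(chevG2.group F) := by
    obtain ⟨x, hx⟩ := ham
    exact hrm.trans (hx ▸ orderOf_dvd_natCard x)
  have hr2 := am_ne (q := q) (by omega) hr hrm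
  have hX : ∃ X Y s, XS q X s ∧ ((X = P3 ∧ Y = P6) ∨ (X = P6 ∧ Y = P3)) := by
    rcases adj_G2 F hr hrS with h1 | h1 | h1 | h1
    · exact absurd h1 hr2.1
    · exact absurd h1 (not_adj_two h hr hrm)
    · rw [← hvv] at h1
      obtain ⟨s, hs⟩ := exists_XS h ham hr hrm (T3.dv r hr h1) T3.ex (fun x hx => (T3.ct r hr h1 x hx).dvd)
      exact ⟨P3, P6, s, hs, Or.inl ⟨rfl, rfl⟩⟩
    · rw [← hvv] at h1
      obtain ⟨s, hs⟩ := exists_XS h ham hr hrm (T6.dv r hr h1) T6.ex (fun x hx => (T6.ct r hr h1 x hx).dvd)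
      exact ⟨P6, P3, s, hs, Or.inr ⟨rfl, rfl⟩⟩
  obtain ⟨X, Y, s, hXS, hXY⟩ := hX
  have hXlow : v ^ 2 + 1 ≤ X + v := by rcases hXY with ⟨h1, -⟩ | ⟨h1, -⟩ <;> omega
  have hXB : X ∣ (q ^ 3 + 1) / 2 := ⟨s, by rw [← hXS.mul]; ring⟩
  have hvq : v ≠ q := by
    rintro rfl
    exact h5 hP.dvd
  -- `X ≠ q² - q + 1`
  have hne : X + q ≠ q ^ 2 + 1 := by
    intro h1
    rcases hXY with ⟨h2, -⟩ | ⟨h2, -⟩
    · -- `q = v + 1`
      have h3 : q = v + 1 := by
        have h4 : v ^ 2 + v + q = q ^ 2 := by omega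
        exact (eq_of_sq_sub (v := v + 1) (q := q) (by
          have : (v + 1) ^ 2 = v ^ 2 + 2 * v + 1 := by ring
          omega) (by omega)).symm
      -- `v` is a power of 2, `q = 5`, `v = 4`
      have h4 : 2 ∣ v := by have := hP.two; omega
      have hu2 : u = 2 := prime_eq hup hv hup Nat.prime_two (by rw [hv]; exact dvd_pow_self u hn.ne') h4
      have h6 : v = 4 := by
        obtain ⟨m, hm, hqm⟩ := hP.pow
        rw [hu2] at hv
        -- `5 ^ m = 2 ^ n + 1`
        rcases Nat.even_or_odd m with ⟨j, hj⟩ | ⟨j, hj⟩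
        · exfalso
          have h7 : 3 ∣ v := by
            have h8 : q % 3 = 1 := by
              rw [hqm, hj, ← two_mul, pow_mul, Nat.pow_mod]
              norm_num
            omega
          have := prime_eq (a := 2) (b := 3) Nat.prime_two hv Nat.prime_two Nat.prime_three h4 h7
          omega
        · have h8 : q % 8 = 5 := by
            rw [hqm, hj, pow_succ, pow_mul, Nat.mul_mod, Nat.pow_mod]
            norm_num
          have h9 : n < 3 := by
            by_contra hcon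
            push Not at hcon
            have : 8 ∣ v := by
              rw [hv]
              exact pow_dvd_pow 2 hcon
            omega
          interval_cases n
          · omega
          · omega
      rw [h6] at h3
      have h7 : q = 5 := h3
      -- 31 divides `|G₂(4)|`
      obtain ⟨x, hx⟩ := hap
      have h8 : ap q ∣ Nat.card ↥(chevG2.group F) := hx ▸ orderOf_dvd_natCard x
      rw [hcard, h6, h7] at h8
      have h9 : ap 5 = 31 := by decide
      rw [h9] at h8
      revert h8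
      norm_num
    · -- `q = v`
      apply hvq
      exact eq_of_sq_sub (by omega) (by omega)
  -- the primes of `ap q`
  by_cases hall : ∀ r : ℕ, r.Prime → r ∣ ap q → r = u
  · -- `ap q` is a power of `u`
    have hap0 : ap q ≠ 0 := by have := ap_ge hP; omega
    obtain ⟨k, hk⟩ : ∃ k, ap q = u ^ k := ⟨_, Nat.eq_prime_pow_of_unique_prime_dvd hap0 (fun hp hd => hall _ hp hd)⟩
    refine pow_false hXS hup (by rw [hv]; exact dvd_pow_self u hn.ne') (by omega) hk (fun hk0 => ?_) hXlow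
    obtain ⟨x, hx⟩ := hap
    have hne : Nonempty chevG2.Idx := ⟨Sum.inl ⟨0, by decide⟩⟩
    have hc : Fintype.card chevG2.Idx = 14 := by
      rw [Fintype.card_sum, Fintype.card_fin, Fintype.card_fin]; decide +kernel
    have h1 := gl_exp (p := u) hk0 (hx.trans hk)
    rw [hc] at h1
    omega
  · push Not at hall
    obtain ⟨t, ht, htp, htu⟩ := hall
    have htS : t ∣ Nat.card ↥(chevG2.group F) := by
      obtain ⟨x, hx⟩ := hap
      exact htp.trans (hx ▸ orderOf_dvd_natCard x)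
    have ht2 := ap_ne (q := q) (by omega) ht htp
    have htB := not_dvd_B_of hP ht htp
    -- the torus `v² - 1`
    have hA : t ∣ v ^ 2 - 1 → False := by
      intro h1
      obtain ⟨x, hx⟩ := H77.E4Tor.tor_G2 F
      rw [← hvv] at hx
      have h2 := dA h ht htp h1 hx
      have h4 := XS.cong hXS h2
      have h6 : ((v ^ 2 - 1 : ℕ) : ℤ) = ((v : ℤ) - 1) * ((v : ℤ) + 1) := by
        rw [Nat.cast_sub (Nat.one_le_pow _ _ (by omega))]
        push_cast; ring
      rw [h6] at h4
      have h7 := (dvd_mul_right _ _).trans h4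
      have h8 := (dvd_mul_left _ _).trans h4
      have hv24 : 24 ≤ v := by
        rcases hXS.cases3 with hq | hq
        · -- `q = 5`
          have h9 : ap 5 = 31 := by decide
          rw [hq, h9] at htp
          have h10 : t = 31 := (Nat.prime_dvd_prime_iff_eq ht (by norm_num)).1 htp
          have h11 : v ^ 2 - 1 = (v - 1) * (v + 1) := by
            have := Nat.sq_sub_sq v 1
            rw [one_pow] at this
            rw [this, mul_comm]
          rw [h11, h10] at h1
          rcases (Nat.Prime.dvd_mul (by norm_num)).1 h1 with h12 | h12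
          · have := Nat.le_of_dvd (by omega) h12
            omega
          · have := Nat.le_of_dvd (by omega) h12
            omega
        · have h9 := hXS.big (by omega)
          by_contra hcon
          have h10 : v ^ 2 + v + 1 ≤ 23 ^ 2 + 23 + 1 := by
            have : v ^ 2 ≤ 23 ^ 2 := Nat.pow_le_pow_left (by omega) 2
            omega
          rcases hXY with ⟨h11, -⟩ | ⟨h11, -⟩ <;> omega
      rcases hXY with ⟨h9, -⟩ | ⟨h9, -⟩
      · exact num_G2p hXS hne (by rw [h9, z3]) hv24 h7 h8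
      · exact num_G2m hXS hne (by rw [h9, z6]) hv24 h7 h8
    -- the other torus
    have hY : t ∣ Y → False := by
      intro h1
      have htX : ¬ t ∣ X := fun h2 => htB (h2.trans hXB)
      have ht3 : ¬ t ∣ 3 := fun h2 => ht2.2.1 ((Nat.prime_dvd_prime_iff_eq ht Nat.prime_three).1 h2)
      have ht6 : ¬ t ∣ 6 := fun h2 => by
        rcases ht.dvd_mul.1 (show t ∣ 2 * 3 from h2) with h3 | h3
        · exact ht2.1 ((Nat.prime_dvd_prime_iff_eq ht Nat.prime_two).1 h3)
        · exact ht3 h3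
      have hap0 : ap q ≠ 0 := by have := ap_ge hP; omega
      have key : Y ∣ (q ^ 3 - 1) / 2 ∧ ap q ∣ Y := by
        rcases hXY with ⟨-, h2⟩ | ⟨-, h2⟩
        · have h3 : od v t = 6 := od_eq ht ht6 (by
            have h4 := Int.natCast_dvd_natCast.2 h1
            rw [h2, z6, ← ev6] at h4
            exact h4)
          obtain ⟨x, hx⟩ := T6.ex
          rw [h2]
          exact ⟨dA h ht htp (h2 ▸ h1) (x := x) (by rw [hx]), dvd_cent ht hap0 hap htp
            (fun x hx => (T6.ct t ht h3 x hx).dvd)⟩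
        · have h3 : od v t = 3 := od_eq ht ht3 (by
            have h4 := Int.natCast_dvd_natCast.2 h1
            rw [h2, z3, ← ev3] at h4
            exact h4)
          obtain ⟨x, hx⟩ := T3.ex
          rw [h2]
          exact ⟨dA h ht htp (h2 ▸ h1) (x := x) (by rw [hx]), dvd_cent ht hap0 hap htp
            (fun x hx => (T3.ct t ht h3 x hx).dvd)⟩
      refine both_G2 hXS key.1 key.2 (v := v) (by omega) hvq ?_
      rcases hXY with ⟨h2, h3⟩ | ⟨h2, h3⟩
      · left; exact ⟨by omega, by omega⟩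
      · right; exact ⟨by omega, by omega⟩
    -- `t` divides the order
    rw [hcard] at htS
    have e6 : v ^ 6 - 1 = (v ^ 2 - 1) * (P3 * P6) := by
      have : ((v ^ 6 - 1 : ℕ) : ℤ) = (((v ^ 2 - 1) * (P3 * P6) : ℕ) : ℤ) := by
        push_cast [Nat.cast_sub (Nat.one_le_pow 6 v (by omega)), Nat.cast_sub (Nat.one_le_pow 2 v (by omega))]
        rw [z3, z6]; ring
      exact_mod_cast this
    rw [e6] at htS
    rcases ht.dvd_mul.1 htS with h1 | h1
    · rcases ht.dvd_mul.1 h1 with h1 | h1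
      · have h2 := ht.dvd_of_dvd_pow h1
        rw [hv] at h2
        exact htu ((Nat.prime_dvd_prime_iff_eq ht hup).1 (ht.dvd_of_dvd_pow h2))
      · exact hA h1
    · rcases ht.dvd_mul.1 h1 with h1 | h1
      · exact hA h1
      · rcases ht.dvd_mul.1 h1 with h1 | h1
        · rcases hXY with ⟨h2, h3⟩ | ⟨h2, h3⟩
          · exact htB (by rw [← h2] at h1; exact h1.trans hXB)
          · exact hY (h3 ▸ h1)
        · rcases hXY with ⟨h2, h3⟩ | ⟨h2, h3⟩
          · exact hY (h3 ▸ h1)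
          · exact htB (by rw [← h2] at h1; exact h1.trans hXB)

end G2

/-- **`G₂(v)`, `v` prime to 5** -/
theorem g2 {q : ℕ} {F : Type u} [Field F] [Fintype F] (h5 : ¬ 5 ∣ Fintype.card F) (hF : 3 ≤ Fintype.card F)
    (h : E5 q ↥(Cfsg.Lie.chevG2.group F)) : False := by
  rw [← Nat.card_eq_fintype_card] at h5 hF
  obtain ⟨p, hp, -, n, hn, hv⟩ := exists_charP F
  have hcard : Nat.card ↥(chevG2.group F) = _ := Cfsg.Agent.S1059.result (F := F) rfl
  rw [← Nat.card_eq_fintype_card] at hcard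
  have hno : ∀ x : ↥(chevG2.group F), orderOf x ≠ 25 := by
    intro x hx
    obtain ⟨⟨a, ha⟩, ⟨b, hb⟩⟩ := H371.P4.order_G2 F
    rcases G2.no25 F h5 x hx with h1 | h1
    · have h2 := eq25 h h1 (x := a) (by rw [ha])
      have h3 : Nat.card F = 26 := by omega
      have := prime_eq (a := 2) (b := 13) hp.out hv Nat.prime_two (by norm_num) (by rw [h3]; norm_num)
        (by rw [h3]; norm_num)
      omega
    · have h2 := eq25 h h1 (x := b) (by rw [hb])
      have h3 : Nat.card F = 24 := by omega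
      have := prime_eq (a := 2) (b := 3) hp.out hv Nat.prime_two (by norm_num) (by rw [h3]; norm_num)
        (by rw [h3]; norm_num)
      omega
  obtain ⟨h1, h2⟩ := case_one h hno
  exact G2.main h5 hF h h1 h2

end Cfsg.Agent.H374.Six5
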