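import Cfsg.Agent.H374.Six5.Grp
import Cfsg.Agent.H77.E4Tor

/-!
# Elimination of `G₂`, `F₄`, `³D₄`, `²F₄` in block 6, `q = 5 ^ m`: common lemmas (helper374, task 2624)

* `od_eq` : the order of `v` modulo a prime divisor of `Φ_m(v)`;
* `eq25`, `case_one`, `dA`, `dB`, `not_adj_two`, `exists_XS`, `XS.cong` : consequences of `E5 q S`;
* `dvd_of_scalar` : elements of order 25 and the maximal tori `w = ± 1`.
-/

set_option autoImplicit false
set_option linter.unusedSectionVars false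

universe u

namespace Cfsg.Agent.H374.Six5

open Cfsg.Agent.H376.Six Cfsg.Agent.H60.Six5
open Cfsg.Agent.H378.ExcAdj
open Cfsg.Agent.H371.Core (Tor)
open Cfsg.Agent.H371.CycEval

/-! ### general -/

/-- `r ∣ Φ_m(v)`, `r ∤ m` -/
theorem od_eq {v r m : ℕ} (hr : r.Prime) (hm : ¬ r ∣ m) (h : (r : ℤ) ∣ (Polynomial.cyclotomic m ℤ).eval (v : ℤ)) :
    od v r = m := by
  have : Fact r.Prime := ⟨hr⟩
  have hne : NeZero ((m : ℕ) : ZMod r) := ⟨fun h0 => hm ((ZMod.natCast_eq_zero_iff m r).1 h0)⟩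
  have h1 : (((Polynomial.cyclotomic m ℤ).eval ((v : ℕ) : ℤ) : ℤ) : ZMod r) =
      (Polynomial.cyclotomic m (ZMod r)).eval ((v : ℕ) : ZMod r) := by
    rw [← Polynomial.map_cyclotomic_int m (ZMod r)]
    have h4 := Polynomial.eval_intCast_map (Int.castRingHom (ZMod r)) (Polynomial.cyclotomic m ℤ) ((v : ℕ) : ℤ)
    rw [Int.cast_natCast] at h4
    rw [h4]
    rfl
  rw [← ZMod.intCast_zmod_eq_zero_iff_dvd, h1] at h
  have h2 : IsPrimitiveRoot ((v : ℕ) : ZMod r) m := Polynomial.isRoot_cyclotomic_iff.1 h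
  exact h2.eq_orderOf.symm

section General

variable {q : ℕ} {S : Type u} [Group S]

theorem minus_of (h : E5 q S) (hS : ¬ AL2 S) : ∃ x : S, orderOf x = am q := h.minus.resolve_left hS

/-- `N ∣ orderOf x`, `25 ∣ N` ⇒ `N = 25` -/
theorem eq25 (h : E5 q S) {N : ℕ} (h25 : 25 ∣ N) {x : S} (hx : N ∣ orderOf x) : N = 25 := by
  have h1 := eq_25 (pow5 h.pow) (h25.trans hx) (h.ub' ⟨x, rfl⟩)
  rw [h1] at hx
  exact Nat.dvd_antisymm hx h25

/-- no elements of order 25 -/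
theorem case_one (h : E5 q S) (hno : ∀ x : S, orderOf x ≠ 25) :
    (∃ x : S, orderOf x = ap q) ∧ (∃ x : S, orderOf x = am q) := by
  rcases h.five with h1 | ⟨x, hx⟩
  · exact ⟨h1.1, h1.2.1⟩
  · exact absurd hx (hno x)

theorem dA (h : E5 q S) {r N : ℕ} (hr : r.Prime) (hra : r ∣ ap q) (hrN : r ∣ N) {x : S} (hx : N ∣ orderOf x) :
    N ∣ (q ^ 3 - 1) / 2 :=
  hx.trans (dvd_A (pow5 h.pow) hr hra (hrN.trans hx) (h.ub' ⟨x, rfl⟩))

theorem dB (h : E5 q S) {r N : ℕ} (hr : r.Prime) (hra : r ∣ am q) (hrN : r ∣ N) {x : S} (hx : N ∣ orderOf x) :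
    N ∣ (q ^ 3 + 1) / 2 :=
  hx.trans (dvd_B (pow5 h.pow) hr hra (hrN.trans hx) (h.ub' ⟨x, rfl⟩))

/-- the prime divisors of `am q` are not adjacent to 2 -/
theorem not_adj_two (h : E5 q S) {r : ℕ} (hr : r.Prime) (hra : r ∣ am q) : ¬ H94.PG.Adj S r 2 := by
  rintro ⟨h1, h2, h3, x, y, hx, hy, hc⟩
  have h4 : orderOf (x * y) = r * 2 := by
    rw [hc.orderOf_mul_eq_mul_orderOf_of_coprime, hx, hy]
    rw [hx, hy]
    exact (Nat.coprime_primes h1 h2).2 h3
  have h5 := dB h hr hra (N := r * 2) (Dvd.intro _ rfl) (x := x * y) (by rw [h4])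
  have hP := pow5 h.pow
  have h6 : q ^ 3 % 4 = 1 := by rw [Nat.pow_mod, hP.mod]
  have h7 : 2 ∣ (q ^ 3 + 1) / 2 := (Dvd.intro_left _ rfl).trans h5
  omega

/-- a number divisible by all elements of order `n` with a prime `r ∣ n` whose elements have centralizers of order
dividing `N` -/
theorem dvd_cent [Finite S] {n N r : ℕ} (hr : r.Prime) (hn : n ≠ 0) (hx : ∃ x : S, orderOf x = n) (hrn : r ∣ n)
    (hc : ∀ x : S, orderOf x = r → Nat.card ↥(Subgroup.centralizer {x}) ∣ N) : n ∣ N := by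
  obtain ⟨g, hg⟩ := hx
  obtain ⟨k, hk⟩ := hrn
  have hk0 : k ≠ 0 := by
    rintro rfl
    exact hn (by rw [hk, mul_zero])
  have hgk : orderOf (g ^ k) = r := by
    rw [orderOf_pow' g hk0, hg, Nat.gcd_eq_right (Dvd.intro_left r hk.symm), hk]
    exact Nat.mul_div_cancel r (Nat.pos_of_ne_zero hk0)
  refine dvd_trans ?_ (hc _ hgk)
  rw [← hg]
  have hmem : g ∈ Subgroup.centralizer {g ^ k} := by
    rw [Subgroup.mem_centralizer_singleton_iff]
    exact (Commute.self_pow g k)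
  rw [← Subgroup.orderOf_mk g hmem]
  exact orderOf_dvd_natCard _

/-- the torus of the primes of `am q` -/
theorem exists_XS [Finite S] (h : E5 q S) (hm : ∃ x : S, orderOf x = am q) {r X : ℕ} (hr : r.Prime) (hra : r ∣ am q)
    (hrX : r ∣ X) (hex : ∃ x : S, orderOf x = X)
    (hc : ∀ x : S, orderOf x = r → Nat.card ↥(Subgroup.centralizer {x}) ∣ X) : ∃ s, XS q X s := by
  have hP := pow5 h.pow
  obtain ⟨x, hx⟩ := hex
  obtain ⟨s, hs⟩ := dB h hr hra hrX (x := x) (by rw [hx])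
  exact ⟨s, hP, by rw [hs]; ring, dvd_cent hr (by have := am_ge hP; omega) hm hra hc⟩

/-- commuting elements: an element of order divisible by both orders -/
theorem exists_lcm {G : Type*} [Group G] [Finite G] {x y : G} (hc : Commute x y) {m n : ℕ} (hx : m ∣ orderOf x)
    (hy : n ∣ orderOf y) : ∃ z : G, m ∣ orderOf z ∧ n ∣ orderOf z := by
  refine ⟨x ^ (orderOf x / (orderOf x).factorizationLCMLeft (orderOf y)) *
    y ^ (orderOf y / (orderOf x).factorizationLCMRight (orderOf y)), ?_⟩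
  rw [hc.orderOf_mul_pow_eq_lcm (orderOf_pos x).ne' (orderOf_pos y).ne']
  exact ⟨hx.trans (Nat.dvd_lcm_left _ _), hy.trans (Nat.dvd_lcm_right _ _)⟩

/-- a prime power is not divisible by two primes -/
theorem prime_eq {p n v a b : ℕ} (hp : p.Prime) (hv : v = p ^ n) (ha : a.Prime) (hb : b.Prime) (h1 : a ∣ v)
    (h2 : b ∣ v) : a = b := by
  rw [hv] at h1 h2
  rw [(Nat.prime_dvd_prime_iff_eq ha hp).1 (ha.dvd_of_dvd_pow h1),
    (Nat.prime_dvd_prime_iff_eq hb hp).1 (hb.dvd_of_dvd_pow h2)]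

/-- `N ∣ A` as a congruence -/
theorem XS.cong {X s N : ℕ} (h : XS q X s) (hN : N ∣ (q ^ 3 - 1) / 2) : (N : ℤ) ∣ (s : ℤ) * X - 1 := by
  have h1 := h.mul
  have h2 := h.P.B
  obtain ⟨k, hk⟩ := hN
  refine ⟨k, ?_⟩
  have h3 : s * X = N * k + 1 := by omega
  have h4 : (s : ℤ) * X = N * k + 1 := by exact_mod_cast h3
  linarith

end General

section Tor

open CoxeterSystem Subgroup Cfsg Cfsg.Lie Cfsg.Lie.ChevalleyDatum
open Cfsg.Agent.ChevalleyStructure Cfsg.Agent.ChevalleyStructure.Elts Cfsg.Agent.ChevalleyStructure.CoxeterGeom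
  Cfsg.Agent.ChevalleyStructure.CoxeterGeomTypes Cfsg.Agent.ChevalleyStructure.NPerm
open Cfsg.Agent.Tits.Roots Cfsg.Agent.Tits.Core Cfsg.Agent.Nodes.Reps Cfsg.Agent.Nodes.BNOf
  Cfsg.Agent.Nodes.RGDChev Cfsg.Agent.Nodes.Bruhat
open Cfsg.Agent.KFacts.RgdField Cfsg.Agent.KFacts.RgdChevCoord Cfsg.Agent.BpExc.TorCent Cfsg.Agent.BpExc.TorChev
open Cfsg.Agent.BpExc.Tow Cfsg.Agent.BpExc.TowChev Cfsg.Agent.BpExc.FamExt Cfsg.Agent.BpExc.FamUntw
  Cfsg.Agent.BpExc.FamInst Cfsg.Agent.BpExc.LangFr Cfsg.Agent.BpExc.FamField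
open Cfsg.Agent.H378.TorDual Cfsg.Agent.H378.AdjTab Cfsg.Agent.H378.CycTab
open Cfsg.Agent.H493.PGTorus Cfsg.Agent.H129.WData

variable {D : ChevalleyDatum} {l : ℕ} {M : CoxeterMatrix (Fin l)} (hp : IsType D l M)
  {W : Type*} [Group W] [Finite W] (cs : CoxeterSystem M W)

theorem rep_smul {A : Mat l} (hA : ∀ i j, A i j = cartanOf D l i j) {L : List (Fin l × Mat l)} (hL : ChainOK A L)
    {e : ℤ} (he : ∀ j m, hd L j m = if j = m then e else 0) :
    rep cs hp.isCartan (cs.wordProd (L.map Prod.fst)) = e • (1 : Module.End ℤ (Fin l → ℤ)) := by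
  refine LinearMap.ext fun x => funext fun m => ?_
  rw [rep_apply_eq hp cs (chain_rep hp cs hA hL), LinearMap.smul_apply, Module.End.one_apply, Pi.smul_apply,
    smul_eq_mul, Finset.sum_eq_single m]
  · rw [he, if_pos rfl, mul_comm]
  · intro j _ hj
    rw [he, if_neg hj, mul_zero]
  · intro h
    exact absurd (Finset.mem_univ m) h

include hp cs in
/-- **The tori of `w = ± 1`**: if `|D.group F| = N ^ l m`, `5 ∤ m`, `N = |e - v|`, then `25 ∣ N`. -/
theorem dvd_of_scalar {B : Fin l → Fin l → ℤ} (hB : InvC D l 1 B) {A : Mat l}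
    (hA : ∀ i j, A i j = cartanOf D l i j) {L : List (Fin l × Mat l)} (hL : ChainOK A L)
    {e : ℤ} (he : ∀ j m, hd L j m = if j = m then e else 0) {F : Type u} [Field F] [Finite F] {N m : ℕ}
    (hN : (N : ℤ) = (Nat.card F : ℕ) - e) (hN0 : N ≠ 0) (hcard : Nat.card ↥(D.group F) = N ^ l * m) (hm : ¬ 5 ∣ m)
    {x : ↥(D.group F)} (hx : orderOf x = 25) : 25 ∣ N := by
  have hr := rep_smul hp cs hA hL he
  have h1 : rep cs hp.isCartan (cs.wordProd (L.map Prod.fst)) - ((Nat.card F : ℕ) : ℤ) •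
      (1 : Module.End ℤ (Fin l → ℤ)) = (-(N : ℤ)) • (1 : Module.End ℤ (Fin l → ℤ)) := by
    rw [hr, ← sub_smul, hN]
    congr 1
    ring
  refine dvd_of_tor hp cs hB (w := cs.wordProd (L.map Prod.fst)) (T := N ^ l) (N := N) (m := m) ?_ (pow_ne_zero _ hN0)
    (g := -1) ?_ hcard hm hx
  · rw [h1, LinearMap.det_smul, map_one, Module.finrank_fin_fun, mul_one, Int.natAbs_pow, Int.natAbs_neg,
      Int.natAbs_natCast]
  · rw [h1, mul_neg, mul_one, ← neg_smul, neg_neg]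

end Tor

end Cfsg.Agent.H374.Six5
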