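import Cfsg.Agent.H374.Six5.Num
import Cfsg.Agent.H458.Six.NoAL
import Cfsg.Agent.H371.Core.Fam

/-!
# Elimination of `G₂`, `F₄`, `³D₄`, `²F₄` in block 6, `q = 5 ^ m`: groups (helper374, task 2624)

* `no_al` : `S` is neither `A₇` nor `PSL₂(u)`, `u` odd, from the order;
* `gl_exp` : the orders of the unipotent elements of `GL_N`;
* `dvd_of_index` : a `p`-element and a subgroup of index prime to `p`;
* `dvd_of_tor` : elements of order 25 and a maximal torus of index prime to 5.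
-/

set_option autoImplicit false
set_option linter.unusedSectionVars false

namespace Cfsg.Agent.H374.Six5

open Cfsg.Agent.H376.Six Cfsg.Agent.H60.Six5

universe u

/-! ### `A₇`, `PSL₂(u)` -/

theorem no_al_two {S : Type*} [Group S] {k M t : ℕ} (hk : 6 ≤ k) (hc : Nat.card S = 2 ^ k * M) (hM : M ≤ 2 ^ k * t)
    (ht : t ^ 3 ≤ 2 ^ k) (hS : AL2 S) : False := by
  have hP : 64 ≤ 2 ^ k := by
    calc 64 = 2 ^ 6 := by norm_num
      _ ≤ 2 ^ k := Nat.pow_le_pow_right (by omega) hk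
  rcases hS with ⟨⟨e⟩⟩ | ⟨K, i1, i2, ho, ⟨e⟩⟩
  · have h1 : Nat.card S = 2520 := by
      have : Nontrivial (Fin 7) := inferInstance
      have h2 := two_mul_nat_card_alternatingGroup (α := Fin 7)
      rw [Nat.card_perm, Nat.card_fin] at h2
      rw [Nat.card_congr e.toEquiv]
      have h3 : Nat.factorial 7 = 5040 := by decide
      omega
    have h2 : 2 ^ 6 ∣ 2520 := by
      rw [← h1, hc]
      exact (pow_dvd_pow 2 hk).mul_right M
    revert h2
    norm_num
  · have h1 := H458.Six.card_psl2 (K := K) ho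
    rw [← Nat.card_congr e.toEquiv] at h1
    obtain ⟨a, ha⟩ := ho
    have ha1 : 1 ≤ a := by
      have : 1 < Fintype.card K := Fintype.one_lt_card
      omega
    have h2 : Fintype.card K ^ 2 - 1 = 4 * (a * (a + 1)) := by
      have : Fintype.card K ^ 2 = 4 * (a * (a + 1)) + 1 := by rw [ha]; ring
      omega
    rw [h2, ha, hc] at h1
    -- `2 ^ k M = (2 a + 1) * 2 a (a + 1)`
    have h3 : 2 ^ k * M = (2 * a + 1) * (2 * (a * (a + 1))) := by
      apply Nat.eq_of_mul_eq_mul_left (by norm_num : 0 < 2)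
      rw [h1]; ring
    have h4 : 2 ^ k ∣ 2 * (a * (a + 1)) := by
      have h5 : Nat.Coprime (2 ^ k) (2 * a + 1) := Nat.Coprime.pow_left k (by
        rw [Nat.Prime.coprime_iff_not_dvd Nat.prime_two]; omega)
      exact h5.dvd_of_dvd_mul_left ⟨M, h3.symm⟩
    obtain ⟨j, rfl⟩ : ∃ j, k = j + 1 := ⟨k - 1, by omega⟩
    have h5 : 2 ^ j ∣ a * (a + 1) := by
      rw [pow_succ, mul_comm] at h4
      exact Nat.dvd_of_mul_dvd_mul_left (by norm_num) h4
    have h6 : 2 ^ j ≤ a + 1 := by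
      by_cases h7 : 2 ∣ a
      · have h8 : Nat.Coprime (2 ^ j) (a + 1) := Nat.Coprime.pow_left j (by
          rw [Nat.Prime.coprime_iff_not_dvd Nat.prime_two]; omega)
        exact (Nat.le_of_dvd ha1 (h8.dvd_of_dvd_mul_right h5)).trans (by omega)
      · have h8 : Nat.Coprime (2 ^ j) a := Nat.Coprime.pow_left j (by
          rw [Nat.Prime.coprime_iff_not_dvd Nat.prime_two]; exact h7)
        exact Nat.le_of_dvd (by omega) (h8.dvd_of_dvd_mul_left h5)
    obtain ⟨P, hPd⟩ : ∃ P, P = 2 ^ (j + 1) := ⟨_, rfl⟩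
    have h7 : P ≤ 2 * a + 2 := by rw [hPd, pow_succ]; omega
    rw [← hPd] at hM ht hP h3
    obtain ⟨b, hb⟩ : ∃ b, P = b + 2 := ⟨P - 2, by omega⟩
    have h8 : 2 * (P * M) ≤ 2 * (P * (P * t)) := Nat.mul_le_mul_left 2 (Nat.mul_le_mul_left P hM)
    have h9 : (b + 1) * (b * (b + 2)) ≤ 2 * (P * M) := by
      rw [h3]
      have e1 : b + 1 ≤ 2 * a + 1 := by omega
      have e2 : b * (b + 2) ≤ (2 * a) * (2 * a + 2) := Nat.mul_le_mul (by omega) (by omega)
      calc (b + 1) * (b * (b + 2)) ≤ (2 * a + 1) * ((2 * a) * (2 * a + 2)) := Nat.mul_le_mul e1 e2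
        _ = 2 * ((2 * a + 1) * (2 * (a * (a + 1)))) := by ring
    have h10 : (b + 1) * b ≤ 2 * (P * t) := by
      apply Nat.le_of_mul_le_mul_left _ (show 0 < P by omega)
      calc P * ((b + 1) * b) = (b + 1) * (b * (b + 2)) := by rw [hb]; ring
        _ ≤ 2 * (P * (P * t)) := h9.trans h8
        _ = P * (2 * (P * t)) := by ring
    have h11 : 16 * t ≤ P := by
      rcases Nat.lt_or_ge t 5 with h12 | h12
      · omega
      · calc 16 * t ≤ t ^ 2 * t := Nat.mul_le_mul_right t (by nlinarith)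
          _ = t ^ 3 := by ring
          _ ≤ P := ht
    have h12 : 16 * (P * t) ≤ P * P := by
      calc 16 * (P * t) = P * (16 * t) := by ring
        _ ≤ P * P := Nat.mul_le_mul_left P h11
    have h13 : 8 * ((b + 1) * b) ≤ P * P := by omega
    rw [hb] at h13
    have h14 : 62 ≤ b := by omega
    nlinarith

/-- `S` is neither `A₇` nor `PSL₂(u)`, `u` odd -/
theorem no_al {S : Type*} [Group S] {p n a v M t : ℕ} (hp : p.Prime) (hn : 0 < n) (hv : v = p ^ n) (ha : 6 ≤ a)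
    (hc : Nat.card S = v ^ a * M) (hM : M ≤ v ^ a * t) (ht : t ^ 3 ≤ v ^ a) : ¬ AL2 S := by
  intro hS
  have hk : 6 ≤ n * a := by nlinarith
  rw [hv, ← pow_mul] at hc hM ht
  by_cases h2 : p = 2
  · subst h2
    exact no_al_two hk hc hM ht hS
  · exact H458.Six.no_al2 hp h2 (k := n * a) (d := 1) (by omega) (fun h => hp.one_lt.ne' (Nat.dvd_one.1 h)) le_rfl
      (by rw [one_mul]; exact hc) (hM.trans (by rw [mul_assoc]; omega)) ht hS

/-! ### unipotent elements -/

theorem nil_pow {ι F : Type*} [Fintype ι] [DecidableEq ι] [Field F] {M : Matrix ι ι F} {k : ℕ} (h : M ^ k = 0) :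
    M ^ Fintype.card ι = 0 := by
  have h1 : (Matrix.toLin' M).charpoly = Polynomial.X ^ Module.finrank F (ι → F) := by
    rw [LinearMap.charpoly_eq_X_pow_iff]
    intro v
    refine ⟨k, ?_⟩
    rw [← Matrix.toLin'_pow, h, map_zero, LinearMap.zero_apply]
  have h2 := (Matrix.toLin' M).aeval_self_charpoly
  rw [h1, map_pow, Polynomial.aeval_X, Module.finrank_fintype_fun_eq_card, ← Matrix.toLin'_pow] at h2
  exact (Matrix.toLin' (R := F) (m := ι) (n := ι)).map_eq_zero_iff.1 h2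

/-- the order `p ^ k` of an element of `GL_N` satisfies `p ^ (k - 1) < N` -/
theorem gl_exp {ι F : Type*} [Fintype ι] [DecidableEq ι] [Nonempty ι] [Field F] {p : ℕ} [hp : Fact p.Prime] [CharP F p]
    {G : Subgroup (Matrix.GeneralLinearGroup ι F)} {x : ↥G} {k : ℕ} (hk : k ≠ 0) (hx : orderOf x = p ^ k) :
    p ^ (k - 1) < Fintype.card ι := by
  by_contra hcon
  push Not at hcon
  obtain ⟨A, hA⟩ : ∃ A : Matrix ι ι F, A = ((x : Matrix.GeneralLinearGroup ι F) : Matrix ι ι F) := ⟨_, rfl⟩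
  have hpow : ∀ j : ℕ, A ^ j = 1 ↔ x ^ j = 1 := by
    intro j
    rw [hA]
    constructor
    · intro h
      apply Subtype.ext
      apply Units.ext
      simpa using h
    · intro h
      have h3 := congrArg (fun y : ↥G => ((y : Matrix.GeneralLinearGroup ι F) : Matrix ι ι F)) h
      simpa using h3
  have : CharP (Matrix ι ι F) p := inferInstance
  have h1 : A ^ p ^ k = 1 := (hpow _).2 (by rw [← hx]; exact pow_orderOf_eq_one x)
  have h3 : (A - 1) ^ (p ^ k) = 0 := by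
    rw [sub_pow_char_pow_of_commute (p := p) _ (Commute.one_right _), h1, one_pow, sub_self]
  have h4 := nil_pow h3
  have h6 : (A - 1) ^ (p ^ (k - 1)) = 0 := by
    obtain ⟨j, hj⟩ := Nat.exists_eq_add_of_le hcon
    rw [hj, pow_add, h4, zero_mul]
  rw [sub_pow_char_pow_of_commute (p := p) _ (Commute.one_right _), one_pow, sub_eq_zero, hpow] at h6
  have h7 := orderOf_dvd_of_pow_eq_one h6
  rw [hx] at h7
  have h8 := (Nat.pow_dvd_pow_iff_le_right hp.out.one_lt).1 h7
  omega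

/-! ### Sylow -/

/-- a `p`-element is conjugate into a subgroup of index prime to `p` -/
theorem dvd_of_index {G : Type*} [Group G] [Finite G] {H : Subgroup G} {p : ℕ} [Fact p.Prime] (hi : ¬ p ∣ H.index)
    {N : ℕ} (hN : ∀ y ∈ H, y ^ N = 1) {x : G} {k : ℕ} (hx : orderOf x = p ^ k) : p ^ k ∣ N := by
  have hP : IsPGroup p (Subgroup.zpowers x) := IsPGroup.of_card (n := k) (by rw [Nat.card_zpowers, hx])
  have : Finite (G ⧸ H) := inferInstance
  obtain ⟨y, hy⟩ := hP.nonempty_fixed_point_of_prime_not_dvd_card (G ⧸ H) hi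
  obtain ⟨g, rfl⟩ := QuotientGroup.mk_surjective y
  have h1 := hy ⟨x, Subgroup.mem_zpowers x⟩
  have h2 : ((x * g : G) : G ⧸ H) = (g : G ⧸ H) := h1
  rw [QuotientGroup.eq] at h2
  have h3 : g⁻¹ * x * g ∈ H := by
    have : g⁻¹ * x * g = ((x * g)⁻¹ * g)⁻¹ := by group
    rw [this]
    exact inv_mem h2
  have h4 := hN _ h3
  have h5 : (g⁻¹ * x * g) ^ N = g⁻¹ * x ^ N * g := by
    have h6 := conj_pow (a := g⁻¹) (b := x) (i := N)
    rwa [inv_inv] at h6
  rw [h5] at h4
  have h6 : x ^ N = 1 := by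
    calc x ^ N = g * (g⁻¹ * x ^ N * g) * g⁻¹ := by group
      _ = 1 := by rw [h4]; group
  rw [← hx]
  exact orderOf_dvd_of_pow_eq_one h6

section Tor

open CoxeterSystem Subgroup Cfsg Cfsg.Lie Cfsg.Lie.ChevalleyDatum
open Cfsg.Agent.ChevalleyStructure Cfsg.Agent.ChevalleyStructure.Elts Cfsg.Agent.ChevalleyStructure.CoxeterGeom
  Cfsg.Agent.ChevalleyStructure.CoxeterGeomTypes Cfsg.Agent.ChevalleyStructure.NPerm
open Cfsg.Agent.Tits.Roots Cfsg.Agent.Tits.Core Cfsg.Agent.Nodes.Reps Cfsg.Agent.Nodes.BNOf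
  Cfsg.Agent.Nodes.RGDChev Cfsg.Agent.Nodes.Bruhat
open Cfsg.Agent.KFacts.RgdField Cfsg.Agent.KFacts.RgdChevCoord Cfsg.Agent.BpExc.TorCent Cfsg.Agent.BpExc.TorChev
open Cfsg.Agent.BpExc.Tow Cfsg.Agent.BpExc.TowChev Cfsg.Agent.BpExc.FamExt Cfsg.Agent.BpExc.FamUntw
  Cfsg.Agent.BpExc.FamInst Cfsg.Agent.BpExc.LangFr Cfsg.Agent.BpExc.FamField
open Cfsg.Agent.H378.TorDual Cfsg.Agent.H378.AdjTab Cfsg.Agent.H378.CycTab
open Cfsg.Agent.H493.PGTorus Cfsg.Agent.H129.WData

variable {D : ChevalleyDatum} {l : ℕ} {M : CoxeterMatrix (Fin l)} (hp : IsType D l M)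
  {W : Type*} [Group W] [Finite W] (cs : CoxeterSystem M W)

include hp cs in
/-- **A maximal torus of index prime to 5.** -/
theorem dvd_of_tor {B : Fin l → Fin l → ℤ} (hB : InvC D l 1 B) {F : Type u} [Field F] [Finite F] {w : W} {T N m : ℕ}
    (hdet : (LinearMap.det (rep cs hp.isCartan w - ((Nat.card F : ℕ) : ℤ) •
      (1 : Module.End ℤ (Fin l → ℤ)))).natAbs = T) (hT : T ≠ 0) {g : Module.End ℤ (Fin l → ℤ)}
    (hg : (rep cs hp.isCartan w - ((Nat.card F : ℕ) : ℤ) • (1 : Module.End ℤ (Fin l → ℤ))) * g =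
      (N : ℤ) • (1 : Module.End ℤ (Fin l → ℤ))) (hcard : Nat.card ↥(D.group F) = T * m) (hm : ¬ 5 ∣ m)
    {x : ↥(D.group F)} (hx : orderOf x = 25) : 25 ∣ N := by
  obtain ⟨φ, hφ⟩ := exists_hom' hp cs hB one_ne_zero (F := F) w
  obtain ⟨f, hf⟩ : ∃ f, f = rep cs hp.isCartan w - ((Nat.card F : ℕ) : ℤ) • (1 : Module.End ℤ (Fin l → ℤ)) := ⟨_, rfl⟩
  have hinj : Function.Injective φ := by
    rw [injective_iff_map_eq_one]
    intro y hy
    have h1 := hφ y hy
    rwa [Nat.gcd_one_left, pow_one] at h1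
  have hcT : Nat.card ↥φ.range = T := by
    rw [← Nat.card_congr (MonoidHom.ofInjective hinj).toEquiv]
    have h0 : LinearMap.det f ≠ 0 := by
      intro h0
      rw [hf] at h0
      rw [h0] at hdet
      exact hT hdet.symm
    rw [← hf] at hdet
    rw [← hdet]
    subst hf
    exact card_co h0
  have hind : φ.range.index = m := by
    have h1 := φ.range.card_mul_index
    rw [hcT, hcard] at h1
    exact Nat.eq_of_mul_eq_mul_left (Nat.pos_of_ne_zero hT) h1
  have : Fact (Nat.Prime 5) := ⟨by norm_num⟩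
  have hfin : Finite ↥(D.group F) := inferInstance
  refine dvd_of_index (p := 5) (k := 2) (H := φ.range) (by rw [hind]; exact hm) ?_ (by rw [hx]; norm_num)
  rintro _ ⟨y, rfl⟩
  rw [← map_pow]
  have h1 : y ^ N = 1 := by
    obtain ⟨y', rfl⟩ := Multiplicative.ofAdd.surjective y
    obtain ⟨z, rfl⟩ := Submodule.Quotient.mk_surjective _ y'
    rw [← ofAdd_nsmul, ofAdd_eq_one, ← Submodule.Quotient.mk_smul, Submodule.Quotient.mk_eq_zero]
    refine ⟨g z, ?_⟩
    rw [← Module.End.mul_apply, hg, LinearMap.smul_apply, Module.End.one_apply, natCast_zsmul]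
  rw [h1, map_one]

end Tor

end Cfsg.Agent.H374.Six5
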